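import Mathlib

/-!
Matrices over the field with five elements given by sparse rows, with a product which is computed in the
kernel.
-/

set_option autoImplicit false

namespace CfsgLib.F4TwoCover13

/-- A sparse row. -/
abbrev Row := List (ℕ × ℕ)

/-- A sparse matrix. -/
abbrev SMat := List Row

/-- The entry of a row. -/
def rowFun (r : Row) (j : ℕ) : ZMod 5 :=
  (r.map fun e => if e.1 = j then (e.2 : ZMod 5) else 0).sum

theorem rowFun_cons (e : ℕ × ℕ) (r : Row) (j : ℕ) :
    rowFun (e :: r) j = (if e.1 = j then (e.2 : ZMod 5) else 0) + rowFun r j := by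
  simp [rowFun]

theorem rowFun_append (r s : Row) (j : ℕ) : rowFun (r ++ s) j = rowFun r j + rowFun s j := by
  simp [rowFun]

/-- Add an entry to a sorted row. -/
def ins (j x : ℕ) : Row → Row
  | [] => [(j, x % 5)]
  | e :: r =>
    if j < e.1 then (j, x % 5) :: e :: r
    else if j = e.1 then (j, (x + e.2) % 5) :: r
    else e :: ins j x r

theorem rowFun_ins (j x : ℕ) (r : Row) (i : ℕ) :
    rowFun (ins j x r) i = (if j = i then (x : ZMod 5) else 0) + rowFun r i := by
  induction r with
  | nil => simp [ins, rowFun, ZMod.natCast_mod]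
  | cons e r ih =>
    by_cases h1 : j < e.1
    · rw [ins, if_pos h1, rowFun_cons, rowFun_cons, ZMod.natCast_mod]
    · by_cases h2 : j = e.1
      · rw [ins, if_neg h1, if_pos h2, rowFun_cons, rowFun_cons, ZMod.natCast_mod, Nat.cast_add,
          ← h2]
        by_cases h3 : j = i <;> simp [h3, add_assoc]
      · rw [ins, if_neg h1, if_neg h2, rowFun_cons, rowFun_cons, ih]; ring

/-- Collect the entries of a row. -/
def norm (r : Row) : Row := (r.foldr (fun e acc => ins e.1 e.2 acc) []).filter fun e => e.2 != 0

theorem rowFun_norm (r : Row) (i : ℕ) : rowFun (norm r) i = rowFun r i := by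
  have h1 : ∀ s : Row, rowFun (s.filter fun e => e.2 != 0) i = rowFun s i := by
    intro s
    induction s with
    | nil => rfl
    | cons e s ih =>
      by_cases h : e.2 = 0
      · rw [List.filter_cons_of_neg (by simp [h]), ih, rowFun_cons, h]; simp
      · rw [List.filter_cons_of_pos (by simp [h]), rowFun_cons, rowFun_cons, ih]
  rw [norm, h1]
  induction r with
  | nil => rfl
  | cons e r ih => rw [List.foldr_cons, rowFun_ins, ih, rowFun_cons]

/-- The matrix. -/
def toMat (A : SMat) : Matrix (Fin 52) (Fin 52) (ZMod 5) := fun i j => rowFun (A.getD i []) j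

/-- All columns of the matrix are in range and there are 52 rows. -/
def okMat (A : SMat) : Bool := A.length == 52 && A.all fun r => r.all fun e => decide (e.1 < 52)

/-- The product. -/
def mulS (A B : SMat) : SMat :=
  A.map fun r => norm (r.flatMap fun e => (B.getD e.1 []).map fun f => (f.1, e.2 * f.2))

theorem rowFun_scale (c : ℕ) (s : Row) (j : ℕ) :
    rowFun (s.map fun f => (f.1, c * f.2)) j = (c : ZMod 5) * rowFun s j := by
  induction s with
  | nil => simp [rowFun]
  | cons f s ih =>
    rw [List.map_cons, rowFun_cons, rowFun_cons, ih, Nat.cast_mul]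
    split_ifs <;> ring

theorem toMat_mulS {A : SMat} (hA : okMat A = true) (B : SMat) :
    toMat (mulS A B) = toMat A * toMat B := by
  simp only [okMat, Bool.and_eq_true, beq_iff_eq, List.all_eq_true, decide_eq_true_eq] at hA
  ext i j
  have hi : (i : ℕ) < A.length := by rw [hA.1]; exact i.isLt
  have hr := hA.2 _ (List.getElem_mem hi)
  rw [Matrix.mul_apply]
  simp only [toMat, mulS]
  rw [List.getD_eq_getElem _ _ (by rwa [List.length_map]), List.getElem_map, rowFun_norm,
    List.getD_eq_getElem _ _ hi]
  generalize A[(i : ℕ)] = r at hr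
  induction r with
  | nil => simp [rowFun]
  | cons e r ih =>
    rw [List.flatMap_cons, rowFun_append, rowFun_scale,
      ih fun x hx => hr x (List.mem_cons_of_mem _ hx)]
    simp only [rowFun_cons, add_mul, Finset.sum_add_distrib]
    refine congrArg (· + _) ?_
    symm
    refine (Finset.sum_eq_single (⟨e.1, hr e List.mem_cons_self⟩ : Fin 52) ?_ ?_).trans ?_
    · intro k _ hk
      rw [if_neg fun h => hk (Fin.ext h.symm), zero_mul]
    · exact fun h => absurd (Finset.mem_univ _) h
    · simp only [if_true]

/-- The identity matrix. -/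
def oneS : SMat := (List.range 52).map fun i => [(i, 1)]

theorem toMat_oneS : toMat oneS = 1 := by
  ext i j
  simp only [toMat, oneS]
  rw [List.getD_eq_getElem _ _ (by simp [i.isLt]), List.getElem_map, List.getElem_range, rowFun_cons,
    Matrix.one_apply]
  simp [rowFun, Fin.ext_iff]

/-- The negative. -/
def negS (A : SMat) : SMat := A.map fun r => norm (r.map fun f => (f.1, 4 * f.2))

theorem toMat_negS (A : SMat) : toMat (negS A) = -toMat A := by
  ext i j
  simp only [toMat, negS, Matrix.neg_apply, List.getD_eq_getElem?_getD, List.getElem?_map]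
  cases A[(i : ℕ)]? with
  | none => simp [rowFun]
  | some r =>
    simp only [Option.map_some, Option.getD_some, rowFun_norm, rowFun_scale]
    rw [show ((4 : ℕ) : ZMod 5) = -1 from rfl, neg_one_mul]

end CfsgLib.F4TwoCover13
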