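import Cfsg.Agent.Chevalley.Data.SysF4
import Cfsg.Agent.F4TwoMult13.Check
import Cfsg.Agent.F4TwoCover13.Data
import Cfsg.Agent.F4TwoCover13.Sparse

/-!
The relations of the rank two subsystems hold up to sign for the matrices.
-/

set_option autoImplicit false

namespace CfsgLib.F4TwoCover13

open Cfsg.Lie CfsgLib.F4TwoMult13

/-- The lift of a root element. -/
def matOf (r : ℕ) : SMat :=
  match mats.find? fun e => e.1 == r with
  | some e => e.2
  | none => []

/-- The product along a word. -/
def evalS : List ℕ → SMat
  | [] => oneS
  | [q] => (matOf q).map norm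
  | q :: w => mulS (matOf q) (evalS w)

/-- The root lies in the subsystem of two fundamental roots. -/
def inSub (i j r : ℕ) : Bool :=
  decide (r < 48 ∧ i < 4 ∧ j < 4) &&
    (List.range 4).all fun k => k == i || k == j || (chevF4.coroot.getD r #[]).getD k 0 == 0

/-- The roots with lifts. -/
def subRoot (r : ℕ) : Bool := (List.range 4).any fun i => (List.range 4).any fun j => inSub i j r

/-- A relation holds up to sign. -/
def relS (a b : ℕ) : Bool :=
  let L := evalS [a, b]
  let R := evalS (rhs a b)
  L == R || L == negS R

/-- The checks. -/
def matsOK : Bool :=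
  (List.range 48).all fun r =>
    !subRoot r || (okMat (matOf r) && evalS [r, r] == oneS)

/-- The relations within the subsystems. -/
def relsOK : Bool :=
  (List.range 4).all fun i => (List.range 4).all fun j => decide (j < i) ||
    let l := (List.range 48).filter (inSub i j)
    l.all fun a => (rhs a a).isEmpty && l.all fun b =>
      !okPair a b || ((rhs a b).all subRoot && relS a b)

/-- The three relations showing that `-1` is in the derived subgroup. -/
def stemOK : Bool :=
  evalS [17, 28] == evalS [28, 17, 20, 25] && evalS [13, 33] == evalS [33, 13, 20] &&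
    evalS [23, 26] == negS (evalS [26, 23, 25]) &&
    ([17, 28, 13, 33, 23, 26, 20, 25].all subRoot) &&
    rhs 17 28 == [28, 17, 20, 25] && rhs 13 33 == [33, 13, 20] && rhs 23 26 == [26, 23, 25]

theorem matsOK_eq : matsOK = true := by decide +kernel

theorem relsOK_eq : relsOK = true := by decide +kernel

theorem stemOK_eq : stemOK = true := by decide +kernel

end CfsgLib.F4TwoCover13
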