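import Cfsg.Agent.CurtisTits2.Data
import Cfsg.Agent.CurtisTits2.Final
import Cfsg.Agent.F4TwoMult13.Final
import Cfsg.Agent.F4TwoCover13.Check

/-!
A stem extension of `F₄(2)` with kernel of order two, from matrices of degree 52 satisfying the relations
of the rank two subsystems up to sign.
-/

set_option autoImplicit false

namespace CfsgLib.F4TwoCover13

open Cfsg.Lie CfsgLib.Chevalley CfsgLib.ChevSteinberg CfsgLib.CurtisTits2 CfsgLib.F4TwoMult13
open scoped commutatorElement

/-- The group of invertible matrices of degree 52. -/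
abbrev G0 := (Matrix (Fin 52) (Fin 52) (ZMod 5))ˣ

/-- The central involution. -/
def negOne : G0 := -1

theorem negOne_val : (negOne : Matrix (Fin 52) (Fin 52) (ZMod 5)) = -1 := by
  rw [negOne, Units.val_neg, Units.val_one]

theorem neg_one_ne {n : Type*} [Fintype n] [DecidableEq n] [Nonempty n] :
    (-1 : (Matrix n n (ZMod 5))ˣ) ≠ 1 := by
  intro h
  obtain ⟨i⟩ := ‹Nonempty n›
  have h0 := congrArg Units.val h
  rw [Units.val_neg, Units.val_one] at h0
  have h1 := congrFun (congrFun h0 i) i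
  rw [Matrix.neg_apply, Matrix.one_apply_eq] at h1
  exact absurd h1 (by decide)

theorem negOne_ne : negOne ≠ 1 := neg_one_ne

theorem neg_one_comm {R : Type*} [Monoid R] [HasDistribNeg R] (g : R) : g * -1 = -1 * g :=
  ((Commute.one_right g).neg_right).eq

theorem negOne_central (g : G0) : g * negOne = negOne * g := neg_one_comm g

theorem negOne_sq : negOne ^ 2 = 1 := neg_one_sq

attribute [local irreducible] negOne

theorem orderOf_negOne : orderOf negOne = 2 := orderOf_eq_prime negOne_sq negOne_ne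

instance : Finite G0 := by
  have : Finite (Matrix (Fin 52) (Fin 52) (ZMod 5)) := Pi.finite
  exact Finite.of_injective Units.val Units.val_injective

theorem conj_zpow_mem {G : Type*} [Group G] {z : G} (hz : ∀ g, g * z = z * g) (n : G)
    (hn : n ∈ Subgroup.zpowers z) (g : G) : g * n * g⁻¹ ∈ Subgroup.zpowers z := by
  obtain ⟨k, rfl⟩ := Subgroup.mem_zpowers_iff.1 hn
  rw [((show Commute g z from hz g).zpow_right k).eq, mul_inv_cancel_right]
  exact Subgroup.zpow_mem_zpowers _ _

/-- Its group. -/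
def signs : Subgroup G0 := Subgroup.zpowers negOne

instance : signs.Normal where
  conj_mem := conj_zpow_mem negOne_central

theorem mats_spec {r : ℕ} (hr : subRoot r = true) :
    okMat (matOf r) = true ∧ evalS [r, r] = oneS := by
  have h := matsOK_eq
  simp only [matsOK, List.all_eq_true, List.mem_range, Bool.or_eq_true, Bool.and_eq_true,
    Bool.not_eq_true', beq_iff_eq] at h
  have hlt : r < 48 := by
    simp only [subRoot, List.any_eq_true, inSub, Bool.and_eq_true, decide_eq_true_eq] at hr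
    obtain ⟨_, _, _, _, h, _⟩ := hr
    exact h.1
  rcases h r hlt with e | e
  · rw [hr] at e; cases e
  · exact e

theorem toMat_map_norm (A : SMat) : toMat (A.map norm) = toMat A := by
  ext i j
  simp only [toMat, List.getD_eq_getElem?_getD, List.getElem?_map]
  cases A[(i : ℕ)]? with
  | none => rfl
  | some r => simp [rowFun_norm]

theorem toMat_evalS : ∀ w : List ℕ, (∀ q ∈ w, subRoot q = true) →
    toMat (evalS w) = (w.map fun q => toMat (matOf q)).prod
  | [], _ => by simp [evalS, toMat_oneS]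
  | [q], _ => by simp [evalS, toMat_map_norm]
  | q :: q' :: w, h => by
    rw [evalS, toMat_mulS (mats_spec (h q List.mem_cons_self)).1,
      toMat_evalS (q' :: w) fun x hx => h x (List.mem_cons_of_mem _ hx)]
    · simp
    · simp

/-- The lift of a root element as an invertible matrix. -/
noncomputable def M (r : ℕ) : G0 :=
  open Classical in
    if h : subRoot r = true then
      ⟨toMat (matOf r), toMat (matOf r), by
        rw [← toMat_oneS, ← (mats_spec h).2, toMat_evalS [r, r] (by simpa using h)]; simp, by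
        rw [← toMat_oneS, ← (mats_spec h).2, toMat_evalS [r, r] (by simpa using h)]; simp⟩
    else 1

theorem M_val {r : ℕ} (h : subRoot r = true) :
    (M r : Matrix (Fin 52) (Fin 52) (ZMod 5)) = toMat (matOf r) := by
  rw [M, dif_pos h]

/-- The product of the lifts along a word. -/
noncomputable def evalU (w : List ℕ) : G0 := (w.map M).prod

theorem evalU_val {w : List ℕ} (h : ∀ q ∈ w, subRoot q = true) :
    (evalU w : Matrix (Fin 52) (Fin 52) (ZMod 5)) = toMat (evalS w) := by
  rw [toMat_evalS w h, evalU, ← Units.coeHom_apply, map_list_prod, List.map_map]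
  exact congrArg List.prod (List.map_congr_left fun q hq => M_val (h q hq))

theorem eq_of_evalS {u w : List ℕ} (hu : ∀ q ∈ u, subRoot q = true)
    (hw : ∀ q ∈ w, subRoot q = true) (h : evalS u = evalS w) : evalU u = evalU w := by
  apply Units.ext
  rw [evalU_val hu, evalU_val hw, h]

theorem neg_of_evalS {u w : List ℕ} (hu : ∀ q ∈ u, subRoot q = true)
    (hw : ∀ q ∈ w, subRoot q = true) (h : evalS u = negS (evalS w)) :
    evalU u = negOne * evalU w := by
  apply Units.ext
  rw [evalU_val hu, h, toMat_negS, Units.val_mul, evalU_val hw]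
  rw [negOne_val, neg_one_mul]

theorem inSub_of {i j r : ℕ} (h : chevF4.InRankTwoSub i j r) : inSub i j r = true := by
  obtain ⟨hr, hi, hj, hk⟩ := h
  have h4 : chevF4.rank = 4 := by decide +kernel
  rw [h4] at hi hj hk
  simp only [inSub, Bool.and_eq_true, decide_eq_true_eq, List.all_eq_true, List.mem_range,
    Bool.or_eq_true, beq_iff_eq]
  refine ⟨⟨hr, hi, hj⟩, fun k hk4 => ?_⟩
  by_cases h1 : k = i
  · exact Or.inl (Or.inl h1)
  by_cases h2 : k = j
  · exact Or.inl (Or.inr h2)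
  exact Or.inr (hk k hk4 h1 h2)

theorem subRoot_of {i j r : ℕ} (h : inSub i j r = true) : subRoot r = true := by
  have h' := h
  simp only [inSub, Bool.and_eq_true, decide_eq_true_eq] at h'
  simp only [subRoot, List.any_eq_true, List.mem_range]
  exact ⟨i, h'.1.2.1, j, h'.1.2.2, h⟩

theorem mk_negOne : QuotientGroup.mk' signs negOne = 1 :=
  (QuotientGroup.eq_one_iff _).2 (Subgroup.mem_zpowers _)

theorem rel_mk {i j a b : ℕ} (ha : chevF4.InRankTwoSub i j a) (hb : chevF4.InRankTwoSub i j b)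
    (hok : okPair a b = true) :
    (∀ q ∈ rhs a b, subRoot q = true) ∧
      QuotientGroup.mk' signs (M a * M b) = QuotientGroup.mk' signs (evalU (rhs a b)) := by
  wlog hij : i ≤ j generalizing i j
  · refine this (i := j) (j := i) ?_ ?_ (le_of_not_ge hij) <;>
      refine ⟨?_, ?_, ?_, fun k hk h1 h2 => ?_⟩
    exacts [ha.1, ha.2.2.1, ha.2.1, ha.2.2.2 k hk h2 h1, hb.1, hb.2.2.1, hb.2.1,
      hb.2.2.2 k hk h2 h1]
  have hA := inSub_of ha
  have hB := inSub_of hb
  have hA' := hA
  have hB' := hB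
  simp only [inSub, Bool.and_eq_true, decide_eq_true_eq] at hA' hB'
  have h := relsOK_eq
  simp only [relsOK, List.all_eq_true, List.mem_range, Bool.or_eq_true, decide_eq_true_eq] at h
  have h' := (h i hA'.1.2.1 j hA'.1.2.2).resolve_left (by omega)
  simp only [List.mem_filter, List.mem_range, Bool.and_eq_true, List.all_eq_true,
    Bool.or_eq_true, Bool.not_eq_true'] at h'
  rcases (h' a ⟨hA'.1.1, hA⟩).2 b ⟨hB'.1.1, hB⟩ with e | e
  · rw [hok] at e; cases e
  obtain ⟨hsub, hrel⟩ := e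
  refine ⟨hsub, ?_⟩
  have hu : ∀ q ∈ [a, b], subRoot q = true := by
    simp [subRoot_of hA, subRoot_of hB]
  have hM : M a * M b = evalU [a, b] := by simp [evalU]
  rw [hM]
  simp only [relS, Bool.or_eq_true, beq_iff_eq] at hrel
  rcases hrel with e | e
  · rw [eq_of_evalS hu hsub e]
  · rw [neg_of_evalS hu hsub e, map_mul, mk_negOne, one_mul]

variable {F : Type*} [Field F]

/-- A relation word evaluated in a monoid. -/
theorem prod_commWord (h2 : ∀ t : F, t = 0 ∨ t = 1) {G : Type*} [Monoid G] (f : ℕ → F → G)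
    (hz : ∀ r, f r 0 = 1) {r s : ℕ} (hr : r < 48) (hs : s < 48) (h1 : r ≠ s) (h3 : r + s ≠ 47) :
    ((chevF4.commWord F r s 1 1).map fun p => f p.1 p.2).prod =
      ((pcP r s).map fun q => f q 1).prod := by
  rw [← (tab_spec hr hs h1 h3).2, ChevalleyDatum.commWord, List.map_map, List.map_map]
  induction chevF4.commTerms r s with
  | nil => rfl
  | cons c l ih =>
    by_cases hp : c.2.1 % 2 = 0
    · rw [List.map_cons, List.prod_cons, ih, List.filter_cons_of_neg (by simp [hp])]
      simp [Function.comp_apply, intCast_two h2, Int.dvd_of_emod_eq_zero hp, hz]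
    · rw [List.map_cons, List.prod_cons, ih, List.filter_cons_of_pos (by simp [hp]),
        List.map_cons, List.prod_cons]
      simp [Function.comp_apply, intCast_two h2, mt Int.emod_eq_zero_of_dvd hp, neg_one_two h2]

/-- The root elements of the rank two subsystems in the product. -/
noncomputable def yP (F : Type*) [Field F] (r : ℕ) (t : F) :
    (G0 ⧸ signs) × GL chevF4.Idx F :=
  open Classical in
    if subRoot r = true ∧ t ≠ 0 then (QuotientGroup.mk' signs (M r), sysF4.xG F r 1) else 1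

theorem yP_zero (r : ℕ) : yP F r 0 = 1 := by simp [yP]

theorem yP_one {r : ℕ} (h : subRoot r = true) :
    yP F r 1 = (QuotientGroup.mk' signs (M r), sysF4.xG F r 1) := by simp [yP, h]

theorem prod_yP : ∀ w : List ℕ, (∀ q ∈ w, subRoot q = true) →
    (w.map fun q => yP F q 1).prod =
      (QuotientGroup.mk' signs (evalU w), (w.map fun q => sysF4.xG F q 1).prod)
  | [], _ => by simp [evalU]; rfl
  | q :: w, h => by
    rw [List.map_cons, List.prod_cons, prod_yP w fun x hx => h x (List.mem_cons_of_mem _ hx),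
      yP_one (h q List.mem_cons_self)]
    simp [evalU]

theorem rule_yP (h2 : ∀ t : F, t = 0 ∨ t = 1) {i j a b : ℕ} (ha : chevF4.InRankTwoSub i j a)
    (hb : chevF4.InRankTwoSub i j b) (hok : okPair a b = true) :
    yP F a 1 * yP F b 1 = ((rhs a b).map fun q => yP F q 1).prod := by
  obtain ⟨hsub, hrel⟩ := rel_mk ha hb hok
  rw [prod_yP _ hsub, yP_one (subRoot_of (inSub_of ha)), yP_one (subRoot_of (inSub_of hb)),
    Prod.mk_mul_mk, ← map_mul, hrel, xG_rel h2 hok]

/-- The system on the rank two subsystems. -/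
noncomputable def pSys (h2 : ∀ t : F, t = 0 ∨ t = 1) :
    PSys sysF4 F ((G0 ⧸ signs) × GL chevF4.Idx F) (Ok2 chevF4) where
  y := yP F
  θ := MonoidHom.snd _ _
  θ_y r hr h t := by
    obtain ⟨a, c, h, -⟩ := h
    rcases h2 t with rfl | rfl
    · rw [yP_zero, map_one, sysF4.xG_zero]
    · rw [yP_one (subRoot_of (inSub_of h))]; rfl
  add r hr h t u := by
    rcases h2 t with rfl | rfl
    · rw [zero_add, yP_zero, one_mul]
    rcases h2 u with rfl | rfl
    · rw [add_zero, yP_zero, mul_one]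
    rw [two_zero h2, yP_zero]
    obtain ⟨a, c, h, -⟩ := h
    have hr48 : r < 48 := hr
    have := rule_yP (F := F) h2 h h (by simp [okPair]; omega)
    simpa [rhs] using this
  comm r hr s hs h h1 h3 t u := by
    obtain ⟨a, c, har, has⟩ := h
    have hr48 : r < 48 := hr
    have hs48 : s < 48 := hs
    have hne : r + s ≠ 47 := fun e => h3 (by rw [neg_eq hr48]; omega)
    have hpos := (tab_spec hr48 hs48 (Ne.symm h1) hne).1
    have hnil : ∀ (t u : F), (t = 0 ∨ u = 0) →
        ((chevF4.commWord F r s t u).map fun p => yP F p.1 p.2).prod = 1 := by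
      intro t u htu
      refine List.prod_eq_one fun g hg => ?_
      simp only [ChevalleyDatum.commWord, List.map_map, List.mem_map, Function.comp_apply] at hg
      obtain ⟨d, hd, rfl⟩ := hg
      obtain ⟨hi, hj⟩ := hpos d hd
      rcases htu with rfl | rfl
      · simp [yP_zero, zero_pow hi.ne']
      · simp [yP_zero, zero_pow hj.ne']
    rcases h2 t with rfl | rfl
    · rw [hnil 0 u (Or.inl rfl), yP_zero]; simp
    rcases h2 u with rfl | rfl
    · rw [hnil 1 0 (Or.inr rfl), yP_zero]; simp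
    rw [prod_commWord h2 (yP F) yP_zero hr48 hs48 (Ne.symm h1) hne]
    have hrule := rule_yP (F := F) h2 has har (by simp [okPair]; omega)
    rw [rhs, if_neg h1, List.map_cons, List.map_cons, List.prod_cons, List.prod_cons] at hrule
    rw [mul_assoc, hrule, inv_mul_cancel_left]

/-- The homomorphism to the matrices modulo sign. -/
theorem exists_hom (h2 : ∀ t : F, t = 0 ∨ t = 1) :
    ∃ φ : ↥(chevF4.group F) →* G0 ⧸ signs, ∀ r, subRoot r = true →
      ∀ hm : sysF4.xG F r 1 ∈ chevF4.group F,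
        φ ⟨sysF4.xG F r 1, hm⟩ = QuotientGroup.mk' signs (M r) := by
  obtain ⟨Y, hθ, hY⟩ := exists_stSys ctDataF4 (pSys (F := F) h2)
  set H := Subgroup.closure {g | ∃ r < chevF4.nroots, ∃ t, g = Y.y r t} with hH
  have hmem : ∀ r t, Y.y r t ∈ H := fun r t => by
    by_cases hr : r < chevF4.nroots
    · exact Subgroup.subset_closure ⟨r, hr, t, rfl⟩
    · rw [Y.out r hr]; exact one_mem _
  let T : StSys sysF4 F ↥H :=
    { y := fun r t => ⟨Y.y r t, hmem r t⟩
      θ := Y.θ.comp H.subtype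
      out := fun r hr t => Subtype.ext (Y.out r hr t)
      add := fun r t u => Subtype.ext (Y.add r t u)
      comm := fun r hr s hs h1 h3 t u => by
        apply Subtype.ext
        simp only [Subgroup.coe_mul, Subgroup.coe_inv, Subgroup.val_list_prod, List.map_map]
        exact Y.comm r hr s hs h1 h3 t u
      θ_y := Y.θ_y }
  have hgen : Subgroup.closure {g | ∃ r < chevF4.nroots, ∃ t, g = T.y r t} = ⊤ := by
    apply Subgroup.map_injective H.subtype_injective
    rw [MonoidHom.map_closure, ← MonoidHom.range_eq_map, Subgroup.range_subtype]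
    refine le_antisymm ((Subgroup.closure_le _).2 ?_) (Subgroup.closure_mono ?_)
    · rintro _ ⟨_, ⟨r, hr, t, rfl⟩, rfl⟩
      exact hmem r t
    · rintro _ ⟨r, hr, t, rfl⟩
      exact ⟨_, ⟨r, hr, t, rfl⟩, rfl⟩
  have hmul : T.MulH := fun i t u ht hu => by
    rw [(h2 t).resolve_left ht, (h2 u).resolve_left hu, mul_one, StSys.hT_one, one_mul]
  have hker : T.θ.ker = ⊥ := by
    rw [T.ker_eq_map hmul witness_F4 hgen, ker_torF_F4, Subgroup.map_bot]
  have hrange : T.θ.range = chevF4.group F := by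
    rw [MonoidHom.range_eq_map, ← hgen, MonoidHom.map_closure, sysF4.group_eq]
    refine le_antisymm (Subgroup.closure_mono ?_) (Subgroup.closure_mono ?_)
    · rintro _ ⟨_, ⟨r, hr, t, rfl⟩, rfl⟩
      exact ⟨r, hr, t, T.θ_y r t⟩
    · rintro _ ⟨r, hr, t, rfl⟩
      exact ⟨_, ⟨r, hr, t, rfl⟩, T.θ_y r t⟩
  let θH : ↥H →* ↥(chevF4.group F) :=
    T.θ.codRestrict _ fun x => hrange ▸ ⟨x, rfl⟩
  have hbij : Function.Bijective θH := by
    refine ⟨fun x y e => ?_, fun g => ?_⟩
    · exact (MonoidHom.ker_eq_bot_iff _).1 hker (congrArg Subtype.val e)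
    · obtain ⟨x, hx⟩ : (g : GL chevF4.Idx F) ∈ T.θ.range := by rw [hrange]; exact g.2
      exact ⟨x, Subtype.ext hx⟩
  let e := MulEquiv.ofBijective θH hbij
  refine ⟨((MonoidHom.fst _ _).comp H.subtype).comp e.symm.toMonoidHom, fun r hr hm => ?_⟩
  have he : e.symm ⟨sysF4.xG F r 1, hm⟩ = T.y r 1 :=
    e.symm_apply_eq.2 (Subtype.ext (T.θ_y r 1).symm)
  have hr' := hr
  simp only [subRoot, List.any_eq_true, List.mem_range] at hr'
  obtain ⟨i, hi, j, hj, hin⟩ := hr'
  simp only [inSub, Bool.and_eq_true, decide_eq_true_eq, List.all_eq_true, List.mem_range,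
    Bool.or_eq_true, beq_iff_eq] at hin
  have h4 : chevF4.rank = 4 := by decide +kernel
  have hsub : chevF4.InRankTwoSub i j r :=
    ⟨hin.1.1, by rw [h4]; exact hi, by rw [h4]; exact hj, fun k hk h1 h3 => by
      rcases hin.2 k (h4 ▸ hk) with (e | e) | e
      exacts [absurd e h1, absurd e h3, e]⟩
  show ((e.symm ⟨sysF4.xG F r 1, hm⟩ : ↥H) : (G0 ⧸ signs) × GL chevF4.Idx F).1 = _
  rw [he]
  show (Y.y r 1).1 = _
  rw [hY i j r hsub]
  show (yP F r 1).1 = _
  rw [yP_one hr]

/-- The preimage in a product of a homomorphism to a quotient by a central involution. -/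
theorem stem_pullback.{v, w} {A : Type v} {G : Type w} [Group A] [Group G] [Finite A] [Finite G]
    (z : A) (hz : ∀ g, g * z = z * g) (ho : orderOf z = 2) [(Subgroup.zpowers z).Normal]
    (φ : G →* A ⧸ Subgroup.zpowers z) {m₁ m₂ m₃ m₄ m₅ m₆ m₇ m₈ : A} {x₁ x₂ x₃ x₄ x₅ x₆ x₇ x₈ : G}
    (h₁ : φ x₁ = QuotientGroup.mk' _ m₁) (h₂ : φ x₂ = QuotientGroup.mk' _ m₂)
    (h₃ : φ x₃ = QuotientGroup.mk' _ m₃) (h₄ : φ x₄ = QuotientGroup.mk' _ m₄)
    (h₅ : φ x₅ = QuotientGroup.mk' _ m₅) (h₆ : φ x₆ = QuotientGroup.mk' _ m₆)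
    (h₇ : φ x₇ = QuotientGroup.mk' _ m₇) (h₈ : φ x₈ = QuotientGroup.mk' _ m₈)
    (e₁ : m₁ * m₂ = m₂ * m₁ * (m₇ * m₈) ∧ x₁ * x₂ = x₂ * x₁ * (x₇ * x₈))
    (e₂ : m₃ * m₄ = m₄ * m₃ * m₇ ∧ x₃ * x₄ = x₄ * x₃ * x₇)
    (e₃ : m₅ * m₆ = m₆ * m₅ * (z * m₈) ∧ x₅ * x₆ = x₆ * x₅ * x₈) :
    ∃ (Γ : Type (max v w)) (_ : Group Γ) (_ : Finite Γ) (σ : Γ →* G),
      Cfsg.IsStemExtension σ ∧ Nonempty (σ.ker ≃* Multiplicative (ZMod 2)) := by
  let C : Subgroup (A × G) :=
    ((QuotientGroup.mk' _).comp (MonoidHom.fst A G)).eqLocus (φ.comp (MonoidHom.snd A G))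
  let σ : ↥C →* G := (MonoidHom.snd A G).comp C.subtype
  have hN : (z, (1 : G)) ∈ C := by
    show QuotientGroup.mk' _ z = φ 1
    rw [map_one]
    exact (QuotientGroup.eq_one_iff _).2 (Subgroup.mem_zpowers z)
  let N : ↥C := ⟨_, hN⟩
  have hNc : ∀ g : ↥C, g * N = N * g := fun g => by
    apply Subtype.ext
    exact Prod.ext (hz _) (by simp [N])
  have hker : ∀ x : ↥C, σ x = 1 → ∃ k : ℤ, x = N ^ k := by
    rintro ⟨⟨u, g⟩, hug⟩ (hg : g = 1)
    subst hg
    have hu : QuotientGroup.mk' (Subgroup.zpowers z) u = 1 :=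
      (show _ = φ 1 from hug).trans (map_one φ)
    obtain ⟨k, hk⟩ := Subgroup.mem_zpowers_iff.1 ((QuotientGroup.eq_one_iff u).1 hu)
    exact ⟨k, Subtype.ext (Prod.ext (by simp [N, hk]) (by simp [N]))⟩
  have hsurj : Function.Surjective σ := fun g => by
    obtain ⟨u, hu⟩ := QuotientGroup.mk'_surjective _ (φ g)
    exact ⟨⟨(u, g), hu⟩, rfl⟩
  let y₁ : ↥C := ⟨(m₁, x₁), h₁.symm⟩
  let y₂ : ↥C := ⟨(m₂, x₂), h₂.symm⟩
  let y₃ : ↥C := ⟨(m₃, x₃), h₃.symm⟩
  let y₄ : ↥C := ⟨(m₄, x₄), h₄.symm⟩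
  let y₅ : ↥C := ⟨(m₅, x₅), h₅.symm⟩
  let y₆ : ↥C := ⟨(m₆, x₆), h₆.symm⟩
  let y₇ : ↥C := ⟨(m₇, x₇), h₇.symm⟩
  let y₈ : ↥C := ⟨(m₈, x₈), h₈.symm⟩
  have q1 : y₁ * y₂ = y₂ * y₁ * (y₇ * y₈) := Subtype.ext (Prod.ext e₁.1 e₁.2)
  have q2 : y₃ * y₄ = y₄ * y₃ * y₇ := Subtype.ext (Prod.ext e₂.1 e₂.2)
  have q3 : y₅ * y₆ = y₆ * y₅ * (N * y₈) :=
    Subtype.ext (Prod.ext e₃.1 (by simpa [y₅, y₆, y₈, N] using e₃.2))
  have hcm : ∀ a b c : ↥C, a * b = b * a * c → c ∈ commutator ↥C := fun a b c h => by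
    have : c = ⁅a⁻¹, b⁻¹⁆ := by
      rw [show ⁅a⁻¹, b⁻¹⁆ = (b * a)⁻¹ * (a * b) by simp only [commutatorElement_def]; group, h,
        inv_mul_cancel_left]
    rw [this]
    exact Subgroup.commutator_mem_commutator (Subgroup.mem_top _) (Subgroup.mem_top _)
  have hNmem : N ∈ commutator ↥C := by
    have m8 : y₈ ∈ commutator ↥C := by
      have := mul_mem (inv_mem (hcm _ _ _ q2)) (hcm _ _ _ q1)
      rwa [inv_mul_cancel_left] at this
    simpa using mul_mem (hcm _ _ _ q3) (inv_mem m8)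
  refine ⟨↥C, inferInstance, inferInstance, σ, ⟨hsurj, fun x hx => ?_, fun x hx => ?_⟩, ?_⟩
  · obtain ⟨k, rfl⟩ := hker x hx
    exact Subgroup.mem_center_iff.2 fun g => ((show Commute g N from hNc g).zpow_right k).eq
  · obtain ⟨k, rfl⟩ := hker x hx
    exact zpow_mem hNmem k
  · let f : σ.ker →* Subgroup.zpowers z :=
      (((MonoidHom.fst A G).comp C.subtype).comp σ.ker.subtype).codRestrict _ fun x => by
        obtain ⟨k, hk⟩ := hker x x.2
        show ((x : ↥C) : A × G).1 ∈ Subgroup.zpowers z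
        rw [hk]
        exact Subgroup.mem_zpowers_iff.2 ⟨k, by simp [N]⟩
    have hf : Function.Bijective f := by
      refine ⟨fun x y e => ?_, fun u => ?_⟩
      · refine Subtype.ext (Subtype.ext (Prod.ext (congrArg Subtype.val e) ?_))
        exact (show _ = (1 : G) from x.2).trans (show _ = (1 : G) from y.2).symm
      · obtain ⟨k, hk⟩ := Subgroup.mem_zpowers_iff.1 u.2
        refine ⟨⟨N ^ k, by simp [σ, N]⟩, Subtype.ext ?_⟩
        show (((N ^ k : ↥C)) : A × G).1 = _
        rw [← hk]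
        simp [N]
    have hc : Nat.card (Subgroup.zpowers z) = Nat.card (Multiplicative (ZMod 2)) := by
      rw [Nat.card_zpowers, ho]
      simp
    have : IsCyclic (Subgroup.zpowers z) := Subgroup.isCyclic_zpowers z
    exact ⟨(MulEquiv.ofBijective f hf).trans (mulEquivOfCyclicCardEq hc)⟩

instance : (Subgroup.zpowers negOne).Normal where
  conj_mem := conj_zpow_mem negOne_central

/-- The double cover is a stem extension with kernel of order two. -/
theorem exists_cover.{u} {F : Type u} [Field F] [Fintype F] (hF : Fintype.card F = 2) :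
    ∃ (Γ : Type u) (_ : Group Γ) (_ : Finite Γ) (σ : Γ →* ↥(chevF4.group F)),
      Cfsg.IsStemExtension σ ∧ Nonempty (σ.ker ≃* Multiplicative (ZMod 2)) := by
  classical
  have h2 := two_elements hF
  obtain ⟨φ, hφ⟩ := exists_hom (F := F) h2
  have hx : ∀ r, subRoot r = true → sysF4.xG F r 1 ∈ chevF4.group F := fun r hr => by
    refine sysF4.xG_mem F ?_ 1
    simp only [subRoot, List.any_eq_true, inSub, Bool.and_eq_true, decide_eq_true_eq] at hr
    obtain ⟨_, _, _, _, h, _⟩ := hr
    exact h.1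
  have hst := stemOK_eq
  simp only [stemOK, Bool.and_eq_true, beq_iff_eq, List.all_cons, List.all_nil, and_true] at hst
  obtain ⟨⟨⟨⟨⟨⟨e1, e2⟩, e3⟩, s17, s28, s13, s33, s23, s26, s20, s25⟩, r1⟩, r2⟩, r3⟩ := hst
  have q1 := eq_of_evalS (u := [17, 28]) (w := [28, 17, 20, 25]) (by simp [s17, s28])
    (by simp [s17, s28, s20, s25]) e1
  have q2 := eq_of_evalS (u := [13, 33]) (w := [33, 13, 20]) (by simp [s13, s33])
    (by simp [s13, s33, s20]) e2
  have q3 := neg_of_evalS (u := [23, 26]) (w := [26, 23, 25]) (by simp [s23, s26])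
    (by simp [s23, s26, s25]) e3
  have p1 := xG_rel h2 (a := 17) (b := 28) rfl
  have p2 := xG_rel h2 (a := 13) (b := 33) rfl
  have p3 := xG_rel h2 (a := 23) (b := 26) rfl
  rw [r1] at p1
  rw [r2] at p2
  rw [r3] at p3
  simp only [evalU, List.map_cons, List.map_nil, List.prod_cons, List.prod_nil, mul_one]
    at q1 q2 q3 p1 p2 p3
  have E1 : M 17 * M 28 = M 28 * M 17 * (M 20 * M 25) := q1.trans (by simp only [mul_assoc])
  have E2 : M 13 * M 33 = M 33 * M 13 * M 20 := q2.trans (by simp only [mul_assoc])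
  have E3 : M 23 * M 26 = M 26 * M 23 * (negOne * M 25) := by
    rw [q3, ← mul_assoc (M 26 * M 23), negOne_central]; simp only [mul_assoc]
  let x : (r : ℕ) → subRoot r = true → ↥(chevF4.group F) := fun r h => ⟨_, hx r h⟩
  have X1 : x 17 s17 * x 28 s28 = x 28 s28 * x 17 s17 * (x 20 s20 * x 25 s25) :=
    Subtype.ext (p1.trans (by simp only [x, Subgroup.coe_mul, mul_assoc]))
  have X2 : x 13 s13 * x 33 s33 = x 33 s33 * x 13 s13 * x 20 s20 :=
    Subtype.ext (p2.trans (by simp only [x, Subgroup.coe_mul, mul_assoc]))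
  have X3 : x 23 s23 * x 26 s26 = x 26 s26 * x 23 s23 * x 25 s25 :=
    Subtype.ext (p3.trans (by simp only [x, Subgroup.coe_mul, mul_assoc]))
  have hph : ∀ r (h : subRoot r = true), φ (x r h) = QuotientGroup.mk' signs (M r) :=
    fun r h => hφ r h (hx r h)
  have : Finite ↥(chevF4.group F) := inferInstance
  exact @stem_pullback G0 ↥(chevF4.group F) _ _ _ _ negOne negOne_central orderOf_negOne _ φ
    (M 17) (M 28) (M 13) (M 33) (M 23) (M 26) (M 20) (M 25)
    (x 17 s17) (x 28 s28) (x 13 s13) (x 33 s33) (x 23 s23) (x 26 s26) (x 20 s20) (x 25 s25)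
    (hph 17 s17) (hph 28 s28) (hph 13 s13) (hph 33 s33) (hph 23 s23) (hph 26 s26) (hph 20 s20)
    (hph 25 s25) ⟨E1, X1⟩ ⟨E2, X2⟩ ⟨E3, X3⟩

end CfsgLib.F4TwoCover13
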